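import Mathlib
import Cfsg.Prelude.Def_Classical

/-!
# Project OOG (S2413): `PΩ_{2m+1}(q)`, `q` odd, `m ≥ 2`, is generated by two elements — interface

Quadratic space `F^{2m+1}`, `Q = t² + Σ xᵢ yᵢ`; basis `T0 = t`, `E i = e_i`, `Fv i = f_i`.
General Siegel transformations `ρ_{u,w}` (`u` singular, `w ⊥ u`):
`ρ_{u,w}(v) = v + B(v,u) w - (B(v,w) + Q(w) B(v,u)) u`   (`IsSieg u w σ`).
Short root elements `ρ_{e_i, c t}`, `ρ_{f_i, c t}`; long root elements `ρ_{e_j, c e_i}` etc.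
One closed `Prop` per package; paper proofs in the plan note (topic S2413).
-/

set_option autoImplicit false
open scoped Matrix

namespace Cfsg.Agent.Lib.Helper55.OOG

universe u

/-- The vectors of `F^{2m+1}`. -/
abbrev Vec (m : ℕ) (F : Type u) : Type u := Unit ⊕ (Fin m ⊕ Fin m) → F

/-- The quadratic form `t² + Σ xᵢ yᵢ`. -/
abbrev QF (m : ℕ) (F : Type u) [Field F] : Vec m F → F := Cfsg.quadFormOdd m F

/-- The polar form `B(u, v) = Q(u + v) - Q(u) - Q(v)`. -/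
def B {m : ℕ} {F : Type u} [Field F] (u v : Vec m F) : F := QF m F (u + v) - QF m F u - QF m F v

/-- The isometry group of `Q`, a subgroup of `GL`. -/
abbrev Iso (m : ℕ) (F : Type u) [Field F] :
    Subgroup (Matrix.GeneralLinearGroup (Unit ⊕ (Fin m ⊕ Fin m)) F) :=
  Cfsg.isometryGroup F (Cfsg.quadFormOdd m F)

/-- The matrix of an isometry. -/
abbrev mat {m : ℕ} {F : Type u} [Field F] (σ : ↥(Iso m F)) :
    Matrix (Unit ⊕ (Fin m ⊕ Fin m)) (Unit ⊕ (Fin m ⊕ Fin m)) F :=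
  ((σ : Matrix.GeneralLinearGroup (Unit ⊕ (Fin m ⊕ Fin m)) F) :
    Matrix (Unit ⊕ (Fin m ⊕ Fin m)) (Unit ⊕ (Fin m ⊕ Fin m)) F)

/-- The anisotropic basis vector `t`. -/
abbrev T0 {m : ℕ} {F : Type u} [Field F] : Vec m F := Pi.single (Sum.inl ()) 1

/-- The standard basis vector `e_i`. -/
abbrev E {m : ℕ} {F : Type u} [Field F] (i : Fin m) : Vec m F := Pi.single (Sum.inr (Sum.inl i)) 1

/-- The standard basis vector `f_i`. -/
abbrev Fv {m : ℕ} {F : Type u} [Field F] (i : Fin m) : Vec m F := Pi.single (Sum.inr (Sum.inr i)) 1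

/-- `σ` is the Siegel transformation `ρ_{u,w} : v ↦ v + B(v,u) w - (B(v,w) + Q(w) B(v,u)) u`. -/
def IsSieg {m : ℕ} {F : Type u} [Field F] (u w : Vec m F) (σ : ↥(Iso m F)) : Prop :=
  ∀ v : Vec m F, mat σ *ᵥ v = v + B v u • w - (B v w + QF m F w * B v u) • u

/-- `K` contains all short root elements `ρ_{e_i, c t}`, `ρ_{f_i, c t}`. -/
def HasS {m : ℕ} {F : Type u} [Field F] (K : Subgroup ↥(Iso m F)) : Prop :=
  ∀ (i : Fin m) (c : F) (σ : ↥(Iso m F)),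
    (IsSieg (E i) (c • T0) σ → σ ∈ K) ∧ (IsSieg (Fv i) (c • T0) σ → σ ∈ K)

/-- `K` contains all long root elements `ρ_{u', c u}`, `u ∈ {e_i, f_i}`, `u' ∈ {e_j, f_j}`,
`i ≠ j`. -/
def HasLong {m : ℕ} {F : Type u} [Field F] (K : Subgroup ↥(Iso m F)) : Prop :=
  ∀ i j : Fin m, i ≠ j → ∀ (c : F) (σ : ↥(Iso m F)),
    (IsSieg (E j) (c • E i) σ → σ ∈ K) ∧ (IsSieg (E j) (c • Fv i) σ → σ ∈ K) ∧
    (IsSieg (Fv j) (c • E i) σ → σ ∈ K) ∧ (IsSieg (Fv j) (c • Fv i) σ → σ ∈ K)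

/-- `K` contains every Siegel transformation. -/
def HasAll {m : ℕ} {F : Type u} [Field F] (K : Subgroup ↥(Iso m F)) : Prop :=
  ∀ (u w : Vec m F) (σ : ↥(Iso m F)), QF m F u = 0 → B u w = 0 → IsSieg u w σ → σ ∈ K

/-- The matrix `diag(1, g, g⁻ᵀ)`. -/
noncomputable def leviMat {m : ℕ} {F : Type u} [Field F] (g : Matrix (Fin m) (Fin m) F) :
    Matrix (Unit ⊕ (Fin m ⊕ Fin m)) (Unit ⊕ (Fin m ⊕ Fin m)) F :=
  Matrix.fromBlocks (1 : Matrix Unit Unit F) 0 0 (Matrix.fromBlocks g 0 0 (g⁻¹)ᵀ)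

/-- `L` is the Levi embedding `SL_m → O_{2m+1}`, `g ↦ diag(1, g, g⁻ᵀ)`. -/
def IsLevi {m : ℕ} {F : Type u} [Field F]
    (L : Matrix.SpecialLinearGroup (Fin m) F →* ↥(Iso m F)) : Prop :=
  ∀ g : Matrix.SpecialLinearGroup (Fin m) F, mat (L g) = leviMat (g : Matrix (Fin m) (Fin m) F)

/-- `n₀` is a Weyl element at the index `0`: `e₀ ↦ -f₀`, `f₀ ↦ -e₀`, `t ↦ -t`, the other
basis vectors fixed. -/
def IsWeyl0 {n : ℕ} {F : Type u} [Field F] (n₀ : ↥(Iso (n + 1) F)) : Prop :=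
  mat n₀ *ᵥ (E 0 : Vec (n + 1) F) = -Fv 0 ∧ mat n₀ *ᵥ (Fv 0 : Vec (n + 1) F) = -E 0 ∧
  mat n₀ *ᵥ (T0 : Vec (n + 1) F) = -T0 ∧
  ∀ j : Fin (n + 1), j ≠ 0 →
    mat n₀ *ᵥ (E j : Vec (n + 1) F) = E j ∧ mat n₀ *ᵥ (Fv j : Vec (n + 1) F) = Fv j

/-- `c` acts as the (signed) cyclic shift `e_i ↦ e_{i+1}`, `f_i ↦ f_{i+1}`, `e_n ↦ ε e₀`,
`f_n ↦ ε⁻¹ f₀`, `t ↦ t`. -/
def IsShift {n : ℕ} {F : Type u} [Field F] (c : ↥(Iso (n + 1) F)) : Prop :=
  (∀ i : Fin n, mat c *ᵥ (E i.castSucc : Vec (n + 1) F) = E i.succ ∧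
    mat c *ᵥ (Fv i.castSucc : Vec (n + 1) F) = Fv i.succ) ∧
  (∃ ε : F, ε ≠ 0 ∧ mat c *ᵥ (E (Fin.last n) : Vec (n + 1) F) = ε • E 0 ∧
    mat c *ᵥ (Fv (Fin.last n) : Vec (n + 1) F) = ε⁻¹ • Fv 0) ∧
  mat c *ᵥ (T0 : Vec (n + 1) F) = T0

/-- `b` acts as a (signed) Coxeter element: `e₀ → e₁ → … → e_n → ε f₀`, `f₀ → … → f_n → ε' e₀`,
`t ↦ δ t`. -/
def IsCox {n : ℕ} {F : Type u} [Field F] (b : ↥(Iso (n + 1) F)) : Prop :=
  (∀ i : Fin n, mat b *ᵥ (E i.castSucc : Vec (n + 1) F) = E i.succ ∧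
    mat b *ᵥ (Fv i.castSucc : Vec (n + 1) F) = Fv i.succ) ∧
  (∃ ε : F, ε ≠ 0 ∧ mat b *ᵥ (E (Fin.last n) : Vec (n + 1) F) = ε • Fv 0) ∧
  (∃ ε : F, ε ≠ 0 ∧ mat b *ᵥ (Fv (Fin.last n) : Vec (n + 1) F) = ε • E 0) ∧
  (∃ δ : F, δ ≠ 0 ∧ mat b *ᵥ (T0 : Vec (n + 1) F) = δ • T0)

/-! ## Basic lemmas -/

section Basic

variable {m : ℕ} {F : Type u} [Field F]

theorem B_apply (u v : Vec m F) :
    B u v = 2 * u (Sum.inl ()) * v (Sum.inl ()) +
      ∑ i : Fin m, (u (Sum.inr (Sum.inl i)) * v (Sum.inr (Sum.inr i)) +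
        u (Sum.inr (Sum.inr i)) * v (Sum.inr (Sum.inl i))) := by
  unfold B QF Cfsg.quadFormOdd
  simp only [Pi.add_apply]
  have h : ∑ i : Fin m, (u (Sum.inr (Sum.inl i)) + v (Sum.inr (Sum.inl i))) *
        (u (Sum.inr (Sum.inr i)) + v (Sum.inr (Sum.inr i))) =
      ∑ i : Fin m, u (Sum.inr (Sum.inl i)) * u (Sum.inr (Sum.inr i)) +
      ∑ i : Fin m, v (Sum.inr (Sum.inl i)) * v (Sum.inr (Sum.inr i)) +
      ∑ i : Fin m, (u (Sum.inr (Sum.inl i)) * v (Sum.inr (Sum.inr i)) +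
        u (Sum.inr (Sum.inr i)) * v (Sum.inr (Sum.inl i))) := by
    rw [← Finset.sum_add_distrib, ← Finset.sum_add_distrib]
    apply Finset.sum_congr rfl
    intro i _
    ring
  rw [h]
  ring

theorem B_comm (u v : Vec m F) : B u v = B v u := by
  rw [B_apply, B_apply]
  congr 1
  · ring
  · apply Finset.sum_congr rfl
    intro i _
    ring

theorem B_add_left (u u' v : Vec m F) : B (u + u') v = B u v + B u' v := by
  rw [B_apply, B_apply, B_apply]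
  simp only [Pi.add_apply]
  have h : ∑ i : Fin m, ((u (Sum.inr (Sum.inl i)) + u' (Sum.inr (Sum.inl i))) *
        v (Sum.inr (Sum.inr i)) +
        (u (Sum.inr (Sum.inr i)) + u' (Sum.inr (Sum.inr i))) * v (Sum.inr (Sum.inl i))) =
      ∑ i : Fin m, (u (Sum.inr (Sum.inl i)) * v (Sum.inr (Sum.inr i)) +
        u (Sum.inr (Sum.inr i)) * v (Sum.inr (Sum.inl i))) +
      ∑ i : Fin m, (u' (Sum.inr (Sum.inl i)) * v (Sum.inr (Sum.inr i)) +
        u' (Sum.inr (Sum.inr i)) * v (Sum.inr (Sum.inl i))) := by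
    rw [← Finset.sum_add_distrib]
    apply Finset.sum_congr rfl
    intro i _
    ring
  rw [h]
  ring

theorem B_add_right (u v v' : Vec m F) : B u (v + v') = B u v + B u v' := by
  rw [B_comm, B_add_left, B_comm v u, B_comm v' u]

theorem B_smul_left (c : F) (u v : Vec m F) : B (c • u) v = c * B u v := by
  rw [B_apply, B_apply, mul_add, Finset.mul_sum]
  simp only [Pi.smul_apply, smul_eq_mul]
  congr 1
  · ring
  · apply Finset.sum_congr rfl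
    intro i _
    ring

theorem B_smul_right (c : F) (u v : Vec m F) : B u (c • v) = c * B u v := by
  rw [B_comm, B_smul_left, B_comm v u]

theorem B_zero_left (v : Vec m F) : B (0 : Vec m F) v = 0 := by
  rw [B_apply]; simp

theorem B_zero_right (u : Vec m F) : B u (0 : Vec m F) = 0 := by
  rw [B_comm, B_zero_left]

theorem B_neg_left (u v : Vec m F) : B (-u) v = -B u v := by
  have h := B_smul_left (-1 : F) u v
  simpa using h

theorem B_neg_right (u v : Vec m F) : B u (-v) = -B u v := by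
  rw [B_comm, B_neg_left, B_comm v u]

theorem B_sub_left (u u' v : Vec m F) : B (u - u') v = B u v - B u' v := by
  rw [sub_eq_add_neg, B_add_left, B_neg_left]; ring

theorem B_sub_right (u v v' : Vec m F) : B u (v - v') = B u v - B u v' := by
  rw [sub_eq_add_neg, B_add_right, B_neg_right]; ring

theorem Q_add (u v : Vec m F) : QF m F (u + v) = QF m F u + QF m F v + B u v := by
  unfold B; ring

theorem Q_smul (c : F) (u : Vec m F) : QF m F (c • u) = c * c * QF m F u := by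
  unfold QF Cfsg.quadFormOdd
  rw [mul_add, Finset.mul_sum]
  simp only [Pi.smul_apply, smul_eq_mul]
  congr 1
  · ring
  · apply Finset.sum_congr rfl
    intro i _
    ring

theorem Q_zero : QF m F (0 : Vec m F) = 0 := by
  unfold QF Cfsg.quadFormOdd; simp

theorem Q_neg (u : Vec m F) : QF m F (-u) = QF m F u := by
  have h := Q_smul (-1 : F) u
  simpa using h

theorem B_self (u : Vec m F) : B u u = 2 * QF m F u := by
  have h := Q_add u u
  have h2 : u + u = (2 : F) • u := by rw [two_smul]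
  rw [h2, Q_smul] at h
  linear_combination -h

/-- `B(v, e_i) = y_i`. -/
theorem B_E (v : Vec m F) (i : Fin m) : B v (E i) = v (Sum.inr (Sum.inr i)) := by
  classical
  rw [B_apply, Finset.sum_eq_single i]
  · simp
  · intro k _ hk
    simp [hk]
  · intro hi
    exact absurd (Finset.mem_univ i) hi

/-- `B(v, f_i) = x_i`. -/
theorem B_Fv (v : Vec m F) (i : Fin m) : B v (Fv i) = v (Sum.inr (Sum.inl i)) := by
  classical
  rw [B_apply, Finset.sum_eq_single i]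
  · simp
  · intro k _ hk
    simp [hk]
  · intro hi
    exact absurd (Finset.mem_univ i) hi

/-- `B(v, t) = 2 τ`. -/
theorem B_T0 (v : Vec m F) : B v (T0 : Vec m F) = 2 * v (Sum.inl ()) := by
  classical
  rw [B_apply]
  simp

theorem Q_E (i : Fin m) : QF m F (E i) = 0 := by
  unfold QF Cfsg.quadFormOdd
  rw [Finset.sum_eq_zero]
  · simp
  · intro k _
    simp

theorem Q_Fv (i : Fin m) : QF m F (Fv i) = 0 := by
  unfold QF Cfsg.quadFormOdd
  rw [Finset.sum_eq_zero]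
  · simp
  · intro k _
    simp

theorem Q_T0 : QF m F (T0 : Vec m F) = 1 := by
  unfold QF Cfsg.quadFormOdd
  rw [Finset.sum_eq_zero]
  · simp
  · intro k _
    simp

theorem B_E_E (i j : Fin m) : B (E i : Vec m F) (E j) = 0 := by
  rw [B_E]; simp

theorem B_Fv_Fv (i j : Fin m) : B (Fv i : Vec m F) (Fv j) = 0 := by
  rw [B_Fv]; simp

theorem B_E_Fv (i j : Fin m) : B (E i : Vec m F) (Fv j) = if i = j then 1 else 0 := by
  rw [B_Fv]
  by_cases h : i = j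
  · subst h; simp
  · simp [h, Ne.symm h]

theorem B_Fv_E (i j : Fin m) : B (Fv i : Vec m F) (E j) = if i = j then 1 else 0 := by
  rw [B_E]
  by_cases h : i = j
  · subst h; simp
  · simp [h, Ne.symm h]

theorem B_E_T0 (i : Fin m) : B (E i : Vec m F) T0 = 0 := by
  rw [B_T0]; simp

theorem B_Fv_T0 (i : Fin m) : B (Fv i : Vec m F) T0 = 0 := by
  rw [B_T0]; simp

theorem B_T0_E (i : Fin m) : B (T0 : Vec m F) (E i) = 0 := by
  rw [B_E]; simp

theorem B_T0_Fv (i : Fin m) : B (T0 : Vec m F) (Fv i) = 0 := by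
  rw [B_Fv]; simp

theorem B_T0_T0 : B (T0 : Vec m F) T0 = 2 := by
  rw [B_T0]; simp

theorem Q_act (σ : ↥(Iso m F)) (v : Vec m F) : QF m F (mat σ *ᵥ v) = QF m F v :=
  σ.2 v v

theorem B_act (σ : ↥(Iso m F)) (u v : Vec m F) : B (mat σ *ᵥ u) (mat σ *ᵥ v) = B u v := by
  unfold B
  rw [← Matrix.mulVec_add, Q_act, Q_act, Q_act]

theorem mul_act (σ τ : ↥(Iso m F)) (v : Vec m F) : mat (σ * τ) *ᵥ v = mat σ *ᵥ (mat τ *ᵥ v) := by
  rw [Matrix.mulVec_mulVec]; rfl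

theorem one_act (v : Vec m F) : mat (1 : ↥(Iso m F)) *ᵥ v = v := by
  simp [mat]

theorem inv_act (σ : ↥(Iso m F)) (v : Vec m F) : mat σ⁻¹ *ᵥ (mat σ *ᵥ v) = v := by
  rw [← mul_act, inv_mul_cancel, one_act]

theorem act_inv (σ : ↥(Iso m F)) (v : Vec m F) : mat σ *ᵥ (mat σ⁻¹ *ᵥ v) = v := by
  rw [← mul_act, mul_inv_cancel, one_act]

/-- `B(σ⁻¹ v, u) = B(v, σ u)`. -/
theorem B_inv_act (σ : ↥(Iso m F)) (v u : Vec m F) : B (mat σ⁻¹ *ᵥ v) u = B v (mat σ *ᵥ u) := by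
  rw [← B_act σ (mat σ⁻¹ *ᵥ v) u, act_inv]

/-- An isometry is determined by its action on vectors. -/
theorem ext_act {σ τ : ↥(Iso m F)} (h : ∀ v : Vec m F, mat σ *ᵥ v = mat τ *ᵥ v) : σ = τ := by
  apply Subtype.ext
  apply Units.ext
  exact Matrix.ext_of_mulVec_single fun i => h (Pi.single i 1)

theorem isSieg_ext {u w : Vec m F} {σ τ : ↥(Iso m F)} (hσ : IsSieg u w σ)
    (hτ : IsSieg u w τ) : σ = τ :=
  ext_act fun v => by rw [hσ v, hτ v]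

end Basic

/-! ## Packages (closed `Prop`s; paper proofs in the plan note, topic S2413) -/

/-- [EXIST] every Siegel transformation exists as an isometry. -/
def PkgExist : Prop :=
  ∀ (m : ℕ) (F : Type u) [Field F] (u w : Vec m F), QF m F u = 0 → B u w = 0 →
    ∃ σ : ↥(Iso m F), IsSieg u w σ

/-- [ALG] the algebra of the Siegel transformations with a fixed singular vector `u`. -/
def PkgAlg : Prop :=
  ∀ (m : ℕ) (F : Type u) [Field F] (u : Vec m F), QF m F u = 0 →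
    IsSieg u 0 (1 : ↥(Iso m F)) ∧
    (∀ (w w' : Vec m F) (σ σ' : ↥(Iso m F)), B u w = 0 → B u w' = 0 →
      IsSieg u w σ → IsSieg u w' σ' → IsSieg u (w + w') (σ * σ')) ∧
    (∀ (w : Vec m F) (σ : ↥(Iso m F)), B u w = 0 → IsSieg u w σ → IsSieg u (-w) σ⁻¹) ∧
    (∀ (a : F) (w : Vec m F) (σ : ↥(Iso m F)), IsSieg (a • u) w σ ↔ IsSieg u (a • w) σ) ∧
    (∀ (a : F) (w : Vec m F) (σ : ↥(Iso m F)), B u w = 0 →
      (IsSieg u (w + a • u) σ ↔ IsSieg u w σ)) ∧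
    (∀ (w : Vec m F) (σ : ↥(Iso m F)), QF m F w = 0 → B u w = 0 →
      (IsSieg u w σ ↔ IsSieg w (-u) σ))

/-- [CONJ] conjugation: `g ρ_{u,w} g⁻¹ = ρ_{gu,gw}`. -/
def PkgConj : Prop :=
  ∀ (m : ℕ) (F : Type u) [Field F] (u w : Vec m F) (g σ : ↥(Iso m F)),
    IsSieg u w σ → IsSieg (mat g *ᵥ u) (mat g *ᵥ w) (g * σ * g⁻¹)

/-- [COMR] the commutator formula `[ρ_{u,a}, ρ_{u',b}] = ρ_{u', -B(a,b) u}`. -/
def PkgComr : Prop :=
  ∀ (m : ℕ) (F : Type u) [Field F] (u u' a b : Vec m F), QF m F u = 0 → QF m F u' = 0 →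
    B u u' = 0 → B u a = 0 → B u b = 0 → B u' a = 0 → B u' b = 0 →
    ∀ σ τ : ↥(Iso m F), IsSieg u a σ → IsSieg u' b τ →
      IsSieg u' ((-B a b) • u) (σ * τ * σ⁻¹ * τ⁻¹)

/-- [POW] powers: `ρ_{u,w}^k = ρ_{u,kw}`. -/
def PkgPow : Prop :=
  ∀ (m : ℕ) (F : Type u) [Field F] (u w : Vec m F) (σ : ↥(Iso m F)), QF m F u = 0 → B u w = 0 →
    IsSieg u w σ → ∀ k : ℕ, IsSieg u ((k : F) • w) (σ ^ k)

/-- [OM] Siegel transformations lie in `Ω` (they have odd order `p`). -/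
def PkgOm : Prop :=
  ∀ (m : ℕ) (F : Type u) [Field F] [Fintype F], Odd (Fintype.card F) →
    ∀ (u w : Vec m F) (σ : ↥(Iso m F)), QF m F u = 0 → B u w = 0 → IsSieg u w σ →
      σ ∈ Cfsg.Omega F (Cfsg.quadFormOdd m F)

/-- [TORUS] the torus element `e_i ↦ k² e_i`, `f_i ↦ k⁻² f_i` lies in `Ω`. -/
def PkgTorus : Prop :=
  ∀ (m : ℕ) (F : Type u) [Field F] [Fintype F] (i : Fin m) (k : F), k ≠ 0 →
    ∃ h : ↥(Iso m F), h ∈ Cfsg.Omega F (Cfsg.quadFormOdd m F) ∧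
      mat h *ᵥ (E i : Vec m F) = (k * k) • E i ∧ mat h *ᵥ (T0 : Vec m F) = T0 ∧
      (∀ j : Fin m, j ≠ i → mat h *ᵥ (E j : Vec m F) = E j) ∧
      h ^ (Fintype.card F - 1) = 1

/-- [WEYL] `ρ_{e_i,t} ρ_{f_i,t} ρ_{e_i,t}` is a Weyl element. -/
def PkgWeyl : Prop :=
  ∀ (m : ℕ) (F : Type u) [Field F] (i : Fin m) (σ τ : ↥(Iso m F)),
    IsSieg (E i) T0 σ → IsSieg (Fv i) T0 τ →
    mat (σ * τ * σ) *ᵥ (E i : Vec m F) = -Fv i ∧ mat (σ * τ * σ) *ᵥ (Fv i : Vec m F) = -E i ∧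
    mat (σ * τ * σ) *ᵥ (T0 : Vec m F) = -T0 ∧
    ∀ j : Fin m, j ≠ i → mat (σ * τ * σ) *ᵥ (E j : Vec m F) = E j ∧
      mat (σ * τ * σ) *ᵥ (Fv j : Vec m F) = Fv j

/-- [LEVI] the Levi embedding exists. -/
def PkgLevi : Prop :=
  ∀ (m : ℕ) (F : Type u) [Field F],
    ∃ L : Matrix.SpecialLinearGroup (Fin m) F →* ↥(Iso m F), IsLevi L

/-- [XL] the Levi image of a transvection is the long root element `ρ_{f_j, c e_i}`. -/
def PkgXL : Prop :=
  ∀ (m : ℕ) (F : Type u) [Field F] (L : Matrix.SpecialLinearGroup (Fin m) F →* ↥(Iso m F)),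
    IsLevi L → ∀ (i j : Fin m) (hij : i ≠ j) (c : F),
      IsSieg (Fv j) (c • E i) (L (Matrix.SpecialLinearGroup.transvection hij c))

/-- [LEVIOM] the Levi image of `SL_m` lies in `Ω`. -/
def PkgLeviOm : Prop :=
  ∀ (m : ℕ) (F : Type u) [Field F] [Fintype F], Odd (Fintype.card F) → 2 ≤ m →
    ∀ L : Matrix.SpecialLinearGroup (Fin m) F →* ↥(Iso m F), IsLevi L →
      ∀ g : Matrix.SpecialLinearGroup (Fin m) F, L g ∈ Cfsg.Omega F (Cfsg.quadFormOdd m F)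

/-- [SHIFT] a signed cyclic shift in the Levi subgroup. -/
def PkgShift : Prop :=
  ∀ (n : ℕ) (F : Type u) [Field F]
    (L : Matrix.SpecialLinearGroup (Fin (n + 1)) F →* ↥(Iso (n + 1) F)), IsLevi L →
    ∃ g : Matrix.SpecialLinearGroup (Fin (n + 1)) F, IsShift (L g)

/-- [COXB] Weyl element times shift is a Coxeter element. -/
def PkgCoxB : Prop :=
  ∀ (n : ℕ) (F : Type u) [Field F] (n₀ c : ↥(Iso (n + 1) F)), IsWeyl0 n₀ → IsShift c →
    IsCox (n₀ * c)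

/-- [ORB] the orbit of `e₀` under a Coxeter element. -/
def PkgOrb : Prop :=
  ∀ (n : ℕ) (F : Type u) [Field F] (b : ↥(Iso (n + 1) F)), IsCox b → ∀ i : Fin (n + 1),
    (∃ g ∈ Subgroup.zpowers b, ∃ ε δ : F, ε ≠ 0 ∧ δ ≠ 0 ∧
      mat g *ᵥ (E 0 : Vec (n + 1) F) = ε • E i ∧ mat g *ᵥ (T0 : Vec (n + 1) F) = δ • T0) ∧
    (∃ g ∈ Subgroup.zpowers b, ∃ ε δ : F, ε ≠ 0 ∧ δ ≠ 0 ∧
      mat g *ᵥ (E 0 : Vec (n + 1) F) = ε • Fv i ∧ mat g *ᵥ (T0 : Vec (n + 1) F) = δ • T0)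

/-- [SPAN] a finite field of odd order is additively generated by the powers of some `k²`. -/
def PkgSpan : Prop :=
  ∀ (F : Type u) [Field F] [Fintype F], Odd (Fintype.card F) →
    ∃ k : F, k ≠ 0 ∧ ∀ A : AddSubgroup F, (1 : F) ∈ A → (∀ x ∈ A, k * k * x ∈ A) → A = ⊤

/-- [CHAR] the characteristic is prime to `q - 1`. -/
def PkgChar : Prop :=
  ∀ (F : Type u) [Field F] [Fintype F],
    ∃ p : ℕ, ((p : ℕ) : F) = 0 ∧ Nat.Coprime p (Fintype.card F - 1)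

/-- [COP] commuting elements of coprime orders are powers of their product. -/
def PkgCop : Prop :=
  ∀ (G : Type u) [Group G] (s h : G) (A B : ℕ), Nat.Coprime A B → s * h = h * s →
    s ^ A = 1 → h ^ B = 1 → s ∈ Subgroup.zpowers (s * h) ∧ h ∈ Subgroup.zpowers (s * h)

/-- [SHORT] one short root element, the torus and the Coxeter element give all short root
elements. -/
def PkgShort : Prop :=
  ∀ (n : ℕ) (F : Type u) [Field F] (K : Subgroup ↥(Iso (n + 1) F)) (s h b : ↥(Iso (n + 1) F))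
    (i₁ : Fin (n + 1)) (k : F), k ≠ 0 →
    (∀ A : AddSubgroup F, (1 : F) ∈ A → (∀ x ∈ A, k * k * x ∈ A) → A = ⊤) →
    IsSieg (E 0) T0 s → mat h *ᵥ (E i₁ : Vec (n + 1) F) = (k * k) • E i₁ →
    mat h *ᵥ (T0 : Vec (n + 1) F) = T0 → IsCox b → s ∈ K → h ∈ K → b ∈ K → HasS K

/-- [LONG] the short root elements give the long root elements (commutators). -/
def PkgLong : Prop :=
  ∀ (m : ℕ) (F : Type u) [Field F], (2 : F) ≠ 0 → ∀ K : Subgroup ↥(Iso m F), HasS K → HasLong K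

/-- [EPERP] all `ρ_{e_i, w}`, `w ⊥ e_i`. -/
def PkgEPerp : Prop :=
  ∀ (m : ℕ) (F : Type u) [Field F] (K : Subgroup ↥(Iso m F)), HasS K → HasLong K →
    ∀ (i₀ : Fin m) (w : Vec m F) (σ : ↥(Iso m F)), B (E i₀) w = 0 → IsSieg (E i₀) w σ → σ ∈ K

/-- [RED1] a non-zero singular vector is moved to one with `x_{i₀} ≠ 0`. -/
def PkgRed1 : Prop :=
  ∀ (m : ℕ) (F : Type u) [Field F], (2 : F) ≠ 0 → ∀ K : Subgroup ↥(Iso m F), HasS K →
    HasLong K → ∀ (i₀ : Fin m) (p : Vec m F), p ≠ 0 → QF m F p = 0 →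
    ∃ g ∈ K, (mat g *ᵥ p) (Sum.inr (Sum.inl i₀)) ≠ 0

/-- [RED2] a vector with `x_{i₀} ≠ 0` is moved to one in `⟨e_{i₀}, f_{i₀}⟩`. -/
def PkgRed2 : Prop :=
  ∀ (m : ℕ) (F : Type u) [Field F] (K : Subgroup ↥(Iso m F)), HasS K → HasLong K →
    ∀ (i₀ : Fin m) (p : Vec m F), p (Sum.inr (Sum.inl i₀)) ≠ 0 →
    ∃ g ∈ K, (mat g *ᵥ p) (Sum.inl ()) = 0 ∧
      ∀ j : Fin m, j ≠ i₀ →
        (mat g *ᵥ p) (Sum.inr (Sum.inl j)) = 0 ∧ (mat g *ᵥ p) (Sum.inr (Sum.inr j)) = 0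

/-- [RED] a non-zero singular vector is moved into the line `⟨e_{i₀}⟩`. -/
def PkgRed : Prop :=
  ∀ (m : ℕ) (F : Type u) [Field F], (2 : F) ≠ 0 → ∀ K : Subgroup ↥(Iso m F), HasS K →
    HasLong K → ∀ (i₀ : Fin m) (p : Vec m F), p ≠ 0 → QF m F p = 0 →
    ∃ g ∈ K, ∃ c : F, mat g *ᵥ p = c • E i₀

/-- [LINE] a subgroup containing the short and long root elements contains every Siegel
transformation. -/
def PkgLine : Prop :=
  ∀ (m : ℕ) (F : Type u) [Field F], (2 : F) ≠ 0 → 0 < m → ∀ K : Subgroup ↥(Iso m F), HasS K →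
    HasLong K → HasAll K

/-- [BRIDGE] `Ω` is generated by Siegel transformations. -/
def PkgBridge : Prop :=
  ∀ (m : ℕ) (F : Type u) [Field F] [Fintype F], Odd (Fintype.card F) → 2 ≤ m →
    ∀ K : Subgroup ↥(Iso m F), HasAll K → Cfsg.Omega F (Cfsg.quadFormOdd m F) ≤ K

end Cfsg.Agent.Lib.Helper55.OOG
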