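import Mathlib
import Cfsg.Agent.Lib.Helper55.OOG.Defs

/-!
# Project OOG (S2413): interface, part 2 (the strong form of [RED2])
-/

set_option autoImplicit false
open scoped Matrix

namespace Cfsg.Agent.Lib.Helper55.OOG

universe u

/-- [RED2S] a vector with `x_{i₀} ≠ 0` is moved to one in `⟨e_{i₀}, f_{i₀}⟩` with the same
`x_{i₀}`. -/
def PkgRed2S : Prop :=
  ∀ (m : ℕ) (F : Type u) [Field F] (K : Subgroup ↥(Iso m F)), HasS K → HasLong K →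
    ∀ (i₀ : Fin m) (p : Vec m F), p (Sum.inr (Sum.inl i₀)) ≠ 0 →
    ∃ g ∈ K, (mat g *ᵥ p) (Sum.inl ()) = 0 ∧
      (mat g *ᵥ p) (Sum.inr (Sum.inl i₀)) = p (Sum.inr (Sum.inl i₀)) ∧
      ∀ j : Fin m, j ≠ i₀ →
        (mat g *ᵥ p) (Sum.inr (Sum.inl j)) = 0 ∧ (mat g *ᵥ p) (Sum.inr (Sum.inr j)) = 0

end Cfsg.Agent.Lib.Helper55.OOG
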