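import Mathlib
import Cfsg.Agent.Lib.Helper55.OOG.Defs
import Cfsg.Agent.Lib.Helper55.OOG.Defs2

/-!
# Project OOG (S2413): assembly
-/

set_option autoImplicit false
open scoped Matrix

namespace Cfsg.Agent.Lib.Helper55.OOG

universe u

/-- The conclusion of the project on the level of the isometry group. -/
def Main : Prop :=
  ∀ (n : ℕ) (F : Type u) [Field F] [Fintype F], Odd (Fintype.card F) → 1 ≤ n →
    ∃ a b : ↥(Iso (n + 1) F), a ∈ Cfsg.Omega F (Cfsg.quadFormOdd (n + 1) F) ∧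
      b ∈ Cfsg.Omega F (Cfsg.quadFormOdd (n + 1) F) ∧
      Cfsg.Omega F (Cfsg.quadFormOdd (n + 1) F) ≤
        Subgroup.closure ({a, b} : Set ↥(Iso (n + 1) F))

theorem two_ne_zero_of_odd_card (F : Type u) [Field F] [Fintype F] (hodd : Odd (Fintype.card F)) :
    (2 : F) ≠ 0 := by
  intro h
  have hc : ringChar F = 2 :=
    CharP.ringChar_of_prime_eq_zero Nat.prime_two (by exact_mod_cast h)
  have he := FiniteField.even_card_iff_char_two.mp hc
  rw [Nat.odd_iff] at hodd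
  omega

theorem main_of (hExist : PkgExist.{u}) (hAlg : PkgAlg.{u}) (hConj : PkgConj.{u})
    (hPow : PkgPow.{u}) (hOm : PkgOm.{u}) (hTorus : PkgTorus.{u}) (hWeyl : PkgWeyl.{u})
    (hLevi : PkgLevi.{u}) (hLeviOm : PkgLeviOm.{u}) (hShift : PkgShift.{u})
    (hCoxB : PkgCoxB.{u}) (hSpan : PkgSpan.{u}) (hChar : PkgChar.{u}) (hCop : PkgCop.{u})
    (hShort : PkgShort.{u}) (hLong : PkgLong.{u}) (hLine : PkgLine.{u})
    (hBridge : PkgBridge.{u}) : Main.{u} := by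
  intro n F _ _ hodd hn
  have h2 : (2 : F) ≠ 0 := two_ne_zero_of_odd_card F hodd
  obtain ⟨s, hs⟩ := hExist (n + 1) F (E 0) T0 (Q_E 0) (B_E_T0 0)
  obtain ⟨τ, hτ⟩ := hExist (n + 1) F (Fv 0) T0 (Q_Fv 0) (B_Fv_T0 0)
  have hsΩ := hOm (n + 1) F hodd (E 0) T0 s (Q_E 0) (B_E_T0 0) hs
  have hτΩ := hOm (n + 1) F hodd (Fv 0) T0 τ (Q_Fv 0) (B_Fv_T0 0) hτ
  have hW0 : IsWeyl0 (s * τ * s) := hWeyl (n + 1) F 0 s τ hs hτ
  obtain ⟨L, hL⟩ := hLevi (n + 1) F
  obtain ⟨g, hg⟩ := hShift n F L hL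
  have hb : IsCox (s * τ * s * L g) := hCoxB n F _ _ hW0 hg
  obtain ⟨k, hk0, hk⟩ := hSpan F hodd
  obtain ⟨h, hhΩ, hh1, hhT, hhE, hhpow⟩ := hTorus (n + 1) F (Fin.last n) k hk0
  have hlast : (0 : Fin (n + 1)) ≠ Fin.last n := by
    intro h0
    have := congrArg Fin.val h0
    simp at this
    omega
  have hh0 : mat h *ᵥ (E 0 : Vec (n + 1) F) = E 0 := hhE 0 hlast
  have hcomm : s * h = h * s := by
    have h1 := hConj (n + 1) F (E 0) T0 h s hs
    rw [hh0, hhT] at h1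
    have h3 : h * s * h⁻¹ = s := isSieg_ext h1 hs
    calc s * h = (h * s * h⁻¹) * h := by rw [h3]
      _ = h * s := by group
  obtain ⟨p, hp0, hpcop⟩ := hChar F
  have hsp : s ^ p = 1 := by
    have h1 := hPow (n + 1) F (E 0) T0 s (Q_E 0) (B_E_T0 0) hs p
    rw [hp0, zero_smul] at h1
    exact isSieg_ext h1 (hAlg (n + 1) F (E 0) (Q_E 0)).1
  obtain ⟨hsa, hha⟩ := hCop ↥(Iso (n + 1) F) s h p (Fintype.card F - 1) hpcop hcomm hsp hhpow
  have haK : s * h ∈ Subgroup.closure ({s * h, s * τ * s * L g} : Set ↥(Iso (n + 1) F)) :=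
    Subgroup.subset_closure (by simp)
  have hbK : s * τ * s * L g ∈
      Subgroup.closure ({s * h, s * τ * s * L g} : Set ↥(Iso (n + 1) F)) :=
    Subgroup.subset_closure (by simp)
  have hsK := (Subgroup.zpowers_le.mpr haK) hsa
  have hhK := (Subgroup.zpowers_le.mpr haK) hha
  have hS : HasS (Subgroup.closure ({s * h, s * τ * s * L g} : Set ↥(Iso (n + 1) F))) :=
    hShort n F _ s h (s * τ * s * L g) (Fin.last n) k hk0 hk hs hh1 hhT hb hsK hhK hbK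
  have hLg := hLong (n + 1) F h2 _ hS
  have hAll := hLine (n + 1) F h2 (Nat.succ_pos n) _ hS hLg
  have hΩ := hBridge (n + 1) F hodd (by omega) _ hAll
  refine ⟨s * h, s * τ * s * L g, ?_, ?_, hΩ⟩
  · exact mul_mem hsΩ hhΩ
  · exact mul_mem (mul_mem (mul_mem hsΩ hτΩ) hsΩ) (hLeviOm (n + 1) F hodd (by omega) L hL g)

/-- From the isometry group to `PΩ`. -/
theorem final_of (hMain : Main.{u}) (F : Type u) [Field F] [Fintype F]
    (hodd : Odd (Fintype.card F)) (m : ℕ) (hm : 2 ≤ m) :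
    ∃ a b : Cfsg.POmega F (Cfsg.quadFormOdd m F),
      Subgroup.closure ({a, b} : Set (Cfsg.POmega F (Cfsg.quadFormOdd m F))) = ⊤ := by
  obtain ⟨n, rfl⟩ : ∃ n, m = n + 1 := ⟨m - 1, by omega⟩
  obtain ⟨a, b, ha, hb, hle⟩ := hMain n F hodd (by omega)
  have htop : Subgroup.closure ({⟨a, ha⟩, ⟨b, hb⟩} :
      Set ↥(Cfsg.Omega F (Cfsg.quadFormOdd (n + 1) F))) = ⊤ := by
    rw [eq_top_iff]
    intro x _
    have hx : (x : ↥(Iso (n + 1) F)) ∈ Subgroup.closure ({a, b} : Set ↥(Iso (n + 1) F)) :=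
      hle x.2
    have hmap : Subgroup.map (Subgroup.subtype (Cfsg.Omega F (Cfsg.quadFormOdd (n + 1) F)))
        (Subgroup.closure ({⟨a, ha⟩, ⟨b, hb⟩} :
          Set ↥(Cfsg.Omega F (Cfsg.quadFormOdd (n + 1) F)))) =
        Subgroup.closure ({a, b} : Set ↥(Iso (n + 1) F)) := by
      rw [MonoidHom.map_closure, Set.image_pair]
      rfl
    rw [← hmap] at hx
    obtain ⟨y, hy, hyx⟩ := hx
    have hyx' : y = x := Subtype.ext hyx
    rw [← hyx']
    exact hy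
  refine ⟨QuotientGroup.mk ⟨a, ha⟩, QuotientGroup.mk ⟨b, hb⟩, ?_⟩
  have hmap : Subgroup.map (QuotientGroup.mk' (Subgroup.center
        ↥(Cfsg.Omega F (Cfsg.quadFormOdd (n + 1) F))))
      (Subgroup.closure ({⟨a, ha⟩, ⟨b, hb⟩} :
        Set ↥(Cfsg.Omega F (Cfsg.quadFormOdd (n + 1) F)))) =
      Subgroup.closure ({QuotientGroup.mk ⟨a, ha⟩, QuotientGroup.mk ⟨b, hb⟩} :
        Set (Cfsg.POmega F (Cfsg.quadFormOdd (n + 1) F))) := by
    rw [MonoidHom.map_closure, Set.image_pair]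
    rfl
  rw [← hmap, htop, Subgroup.map_top_of_surjective _ (QuotientGroup.mk'_surjective _)]

end Cfsg.Agent.Lib.Helper55.OOG
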